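import Cfsg.Prelude.Def_PLocal
import Cfsg.Agent.Lib.Thompson.Elementary
import Cfsg.Agent.Lib.Components.Cores
import Cfsg.Agent.Lib.GS.JoinSubnormal

/-!
Subnormal subgroups acting irreducibly on their commutators.
-/

set_option autoImplicit false
open Subgroup
open scoped commutatorElement

namespace Cfsg.Agent.Lib.Offender

open Cfsg Cfsg.Agent.Lib.Thompson

variable {G : Type*} [Group G] {p : ℕ}

/-- Conjugate of a subgroup. -/
abbrev cj (g : G) (X : Subgroup G) : Subgroup G := X.map (MulAut.conj g).toMonoidHom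

theorem mem_cj {g x : G} {X : Subgroup G} : x ∈ cj g X ↔ g⁻¹ * x * g ∈ X := by
  rw [cj, mem_map_equiv, MulAut.conj_symm_apply]

theorem cj_mem {g x : G} {X : Subgroup G} (hx : x ∈ X) : g * x * g⁻¹ ∈ cj g X := mem_map_of_mem _ hx

theorem cj_eq_self {g : G} {X : Subgroup G} (h : g ∈ normalizer (X : Set G)) : cj g X = X := by
  ext x; rw [mem_cj]; simpa using (mem_normalizer_iff.mp (inv_mem h) x).symm

theorem mem_normalizer_of_cj {g : G} {X : Subgroup G} (h : cj g X = X) : g ∈ normalizer (X : Set G) :=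
  mem_normalizer_iff.mpr fun x => by
    conv_rhs => rw [← h, mem_cj]
    simp [mul_assoc]

variable [Finite G] [hp : Fact p.Prime] {V E A B : Subgroup G}

theorem normalizer_le_centralizer_normalizer {W : Subgroup G} {g : G} (hg : g ∈ normalizer (W : Set G)) :
    g ∈ normalizer ((centralizer (W : Set G) : Subgroup G) : Set G) :=
  mem_normalizer_fintype fun c hc => mem_centralizer_iff.mpr fun w hw => by
    have hw' : g⁻¹ * w * g ∈ W := by simpa using (mem_normalizer_iff.mp (inv_mem hg) w).mp hw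
    have h1 := mem_centralizer_iff.mp hc _ hw'
    have := congrArg (fun z => g * z * g⁻¹) h1
    simpa [mul_assoc] using this

/-- `E` acts faithfully with trivial `p`-core. -/
structure Amb (p : ℕ) {G : Type*} [Group G] (V E : Subgroup G) : Prop where
  elV : IsElementaryAbelian p V
  norm : E ≤ normalizer (V : Set G)
  faith : E ⊓ centralizer (V : Set G) = ⊥
  core : pCore p ↥E = ⊥

/-- A subnormal subgroup acting irreducibly on its commutator. -/
structure Irr (p : ℕ) {G : Type*} [Group G] (V E A : Subgroup G) : Prop where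
  le : A ≤ E
  sub : (A.subgroupOf E).IsSubnormal
  irr : ∀ U : Subgroup G, U ≤ ⁅V, A⁆ → A ≤ normalizer (U : Set G) → U = ⊥ ∨ U = ⁅V, A⁆
  card : 2 < Nat.card A

theorem Amb.vcomm (h : Amb p V E) {x y : G} (hx : x ∈ V) (hy : y ∈ V) : Commute x y :=
  commute_of_elementary h.elV hx hy

theorem Amb.conj_mem (h : Amb p V E) {g v : G} (hg : g ∈ E) (hv : v ∈ V) : g * v * g⁻¹ ∈ V :=
  (mem_normalizer_iff.mp (h.norm hg) v).mp hv

theorem Amb.comm_mem (h : Amb p V E) {g v : G} (hg : g ∈ E) (hv : v ∈ V) : ⁅g, v⁆ ∈ V := by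
  rw [commutatorElement_def]; exact mul_mem (h.conj_mem hg hv) (inv_mem hv)

theorem Irr.W_le_V (i : Irr p V E A) (h : Amb p V E) : ⁅V, A⁆ ≤ V :=
  le_normalizer_iff_commutator_le_left.mp (i.le.trans h.norm)

theorem Irr.comm_mem_W {A : Subgroup G} {g v : G} (hg : g ∈ A) (hv : v ∈ V) : ⁅g, v⁆ ∈ ⁅V, A⁆ := by
  rw [commutator_comm]; exact commutator_mem_commutator hg hv

theorem Irr.norm_W (i : Irr p V E A) (h : Amb p V E) : A ≤ normalizer ((⁅V, A⁆ : Subgroup G) : Set G) :=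
  fun g hg => mem_normalizer_fintype fun w hw => by
    rw [show g * w * g⁻¹ = ⁅g, w⁆ * w by simp [commutatorElement_def]]
    exact mul_mem (Irr.comm_mem_W hg (i.W_le_V h hw)) hw

/-- The kernel on the commutator is trivial. -/
theorem Irr.faithful (i : Irr p V E A) (h : Amb p V E) {g : G} (hg : g ∈ A)
    (hW : ∀ w ∈ ⁅V, A⁆, Commute g w) : g = 1 := by
  set N : Subgroup G := A ⊓ centralizer ((⁅V, A⁆ : Subgroup G) : Set G)
  have hNn : A ≤ normalizer (N : Set G) := fun x hx => inf_normalizer_le_normalizer_inf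
    ⟨le_normalizer hx, normalizer_le_centralizer_normalizer (i.norm_W h hx)⟩
  have hexp : ∀ x ∈ N, x ^ p = 1 := by
    intro x hx
    have hxE := i.le hx.1
    have key : ∀ v ∈ V, ∀ n : ℕ, x ^ n * v * (x ^ n)⁻¹ = ⁅x, v⁆ ^ n * v := by
      intro v hv n
      induction n with
      | zero => simp
      | succ n ih =>
        have hc : Commute x (⁅x, v⁆ ^ n) :=
          (show Commute x ⁅x, v⁆ from (mem_centralizer_iff.mp hx.2 _ (Irr.comm_mem_W hx.1 hv)).symm).pow_right n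
        calc x ^ (n + 1) * v * (x ^ (n + 1))⁻¹ = x * (x ^ n * v * (x ^ n)⁻¹) * x⁻¹ := by rw [pow_succ']; group
          _ = (x * ⁅x, v⁆ ^ n * x⁻¹) * (x * v * x⁻¹) := by rw [ih]; group
          _ = _ := by
            rw [hc.eq, mul_inv_cancel_right, show x * v * x⁻¹ = ⁅x, v⁆ * v by simp [commutatorElement_def],
              ← mul_assoc, ← pow_succ]
    have : x ^ p ∈ E ⊓ centralizer (V : Set G) := ⟨pow_mem hxE p, mem_centralizer_iff.mpr fun v hv => by
      have := key v hv p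
      rw [h.elV.2 _ (h.comm_mem hxE hv), one_mul] at this
      exact (mul_inv_eq_iff_eq_mul.mp this).symm⟩
    rwa [h.faith, mem_bot] at this
  have hsub : (N.subgroupOf E).IsSubnormal := by
    refine IsSubnormal.trans (K := A.subgroupOf E) (subgroupOf_mono E inf_le_left) ?_ i.sub
    refine Normal.isSubnormal ((normal_subgroupOf_iff_le_normalizer (subgroupOf_mono E inf_le_left)).mpr ?_)
    intro x hx
    refine mem_normalizer_fintype fun y hy => ?_
    exact (mem_normalizer_iff.mp (hNn (mem_subgroupOf.mp hx)) _).mp hy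
  have hp' : IsPGroup p (N.subgroupOf E) := fun x => ⟨1, by
    rw [pow_one]; exact Subtype.ext (Subtype.ext (by simpa using hexp _ x.2))⟩
  have := Components.le_pCore_of_subnormal hsub hp' (x := (⟨g, i.le hg⟩ : E))
    (mem_subgroupOf.mpr ⟨hg, mem_centralizer_iff.mpr fun w hw => (hW w hw).symm.eq⟩)
  rw [h.core, mem_bot] at this
  exact congrArg Subtype.val this

theorem Irr.fix_eq_bot (i : Irr p V E A) (h : Amb p V E) {w : G} (hw : w ∈ ⁅V, A⁆)
    (hc : ∀ g ∈ A, Commute g w) : w = 1 := by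
  rcases i.irr (⁅V, A⁆ ⊓ centralizer (A : Set G)) inf_le_left (fun g hg => inf_normalizer_le_normalizer_inf
    ⟨i.norm_W h hg, normalizer_le_centralizer_normalizer (le_normalizer hg)⟩) with e | e
  · have hm : w ∈ ⁅V, A⁆ ⊓ centralizer (A : Set G) := Subgroup.mem_inf.mpr ⟨hw, mem_centralizer_iff.mpr fun g hg => (hc g hg).eq⟩
    rwa [e, mem_bot] at hm
  · exfalso
    have hA : A ≤ ⊥ := fun g hg => mem_bot.mpr (i.faithful h hg fun w' hw' =>
      mem_centralizer_iff.mp (inf_eq_left.mp e hw') g hg)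
    have := i.card
    rw [le_bot_iff.mp hA, card_bot] at this
    omega

/-- Two irreducibles normalizing each other's commutators commute. -/
theorem mutual_commute (h : Amb p V E) (iA : Irr p V E A) (iB : Irr p V E B)
    (hAB : A ≤ normalizer ((⁅V, B⁆ : Subgroup G) : Set G)) (hBA : B ≤ normalizer ((⁅V, A⁆ : Subgroup G) : Set G))
    (hne : ¬ ⁅V, A⁆ ≤ ⁅V, B⁆) :
    ⁅A, B⁆ = ⊥ ∧ A ⊓ B = ⊥ ∧ ⁅V, A⁆ ⊓ ⁅V, B⁆ = ⊥ ∧ (∀ g ∈ A, ∀ w ∈ ⁅V, B⁆, Commute g w) := by
  have hW : ⁅V, A⁆ ⊓ ⁅V, B⁆ = ⊥ := (iA.irr _ inf_le_left (fun g hg => inf_normalizer_le_normalizer_inf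
    ⟨iA.norm_W h hg, hAB hg⟩)).resolve_right fun e => hne (inf_eq_left.mp e)
  have hcA : ∀ g ∈ A, ∀ w ∈ ⁅V, B⁆, Commute g w := by
    intro g hg w hw
    have h1 : ⁅g, w⁆ ∈ ⁅V, A⁆ ⊓ ⁅V, B⁆ := Subgroup.mem_inf.mpr ⟨Irr.comm_mem_W hg (iB.W_le_V h hw), by
      rw [commutatorElement_def]
      exact mul_mem ((mem_normalizer_iff.mp (hAB hg) w).mp hw) (inv_mem hw)⟩
    rw [hW, mem_bot, commutatorElement_eq_one_iff_commute] at h1
    exact h1
  have hcB : ∀ g ∈ B, ∀ w ∈ ⁅V, A⁆, Commute g w := by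
    intro g hg w hw
    have h1 : ⁅g, w⁆ ∈ ⁅V, A⁆ ⊓ ⁅V, B⁆ := Subgroup.mem_inf.mpr ⟨by
      rw [commutatorElement_def]
      exact mul_mem ((mem_normalizer_iff.mp (hBA hg) w).mp hw) (inv_mem hw),
      Irr.comm_mem_W hg (iA.W_le_V h hw)⟩
    rw [hW, mem_bot, commutatorElement_eq_one_iff_commute] at h1
    exact h1
  refine ⟨commutator_eq_bot_iff_le_centralizer.mpr fun a ha => mem_centralizer_iff.mpr fun b hb => ?_, ?_, hW, hcA⟩
  · have hk : (b * a)⁻¹ * (a * b) ∈ E ⊓ centralizer (V : Set G) := by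
      have hm0 : (b * a)⁻¹ * (a * b) ∈ E :=
        mul_mem (inv_mem (mul_mem (iB.le hb) (iA.le ha))) (mul_mem (iA.le ha) (iB.le hb))
      refine ⟨hm0,
        mem_centralizer_iff.mpr fun v hv => ?_⟩
      have e : (a * b) * v * (a * b)⁻¹ = (b * a) * v * (b * a)⁻¹ := by
        have l : (a * b) * v * (a * b)⁻¹ = (a * ⁅b, v⁆ * a⁻¹) * (a * v * a⁻¹) := by
          simp only [commutatorElement_def]; group
        have r : (b * a) * v * (b * a)⁻¹ = (b * ⁅a, v⁆ * b⁻¹) * (b * v * b⁻¹) := by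
          simp only [commutatorElement_def]; group
        rw [l, r, (hcA a ha _ (Irr.comm_mem_W hb hv)).eq, (hcB b hb _ (Irr.comm_mem_W ha hv)).eq,
          mul_inv_cancel_right, mul_inv_cancel_right,
          show a * v * a⁻¹ = ⁅a, v⁆ * v by simp [commutatorElement_def],
          show b * v * b⁻¹ = ⁅b, v⁆ * v by simp [commutatorElement_def],
          ← mul_assoc, ← mul_assoc, (h.vcomm (h.comm_mem (iB.le hb) hv) (h.comm_mem (iA.le ha) hv)).eq]
      symm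
      refine mul_inv_eq_iff_eq_mul.mp ?_
      calc (b * a)⁻¹ * (a * b) * v * ((b * a)⁻¹ * (a * b))⁻¹
          = (b * a)⁻¹ * ((a * b) * v * (a * b)⁻¹) * (b * a) := by group
        _ = v := by rw [e]; group
    rw [h.faith, mem_bot] at hk
    exact inv_mul_eq_one.mp hk
  · rw [eq_bot_iff]
    rintro g ⟨hgA, hgB⟩
    exact mem_bot.mpr (iA.faithful h hgA fun w hw => hcB g hgB w hw)

theorem cj_commutator {g : G} (hg : g ∈ normalizer (V : Set G)) (X : Subgroup G) :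
    ⁅V, cj g X⁆ = cj g ⁅V, X⁆ := by
  rw [cj, cj, map_commutator]
  conv_lhs => rw [← cj_eq_self hg]

theorem Irr.conj (h : Amb p V E) {g : G} (hg : g ∈ E) (i : Irr p V E A) : Irr p V E (cj g A) where
  le := fun x hx => by
    have := mul_mem (mul_mem hg (i.le (mem_cj.mp hx))) (inv_mem hg)
    simpa [mul_assoc] using this
  sub := by
    have := i.sub.map (f := (MulAut.conj (⟨g, hg⟩ : E)).toMonoidHom) (MulEquiv.surjective _)
    convert this using 1
    ext x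
    rw [mem_subgroupOf, mem_cj, mem_map_equiv, MulAut.conj_symm_apply, mem_subgroupOf]
    rfl
  irr := by
    intro U hU hn
    rw [cj_commutator (h.norm hg)] at hU ⊢
    have hU' : cj g⁻¹ U ≤ ⁅V, A⁆ := fun x hx => by
      have h1 := mem_cj.mp (hU (mem_cj.mp hx))
      simpa [mul_assoc] using h1
    have hn' : A ≤ normalizer ((cj g⁻¹ U : Subgroup G) : Set G) := fun a ha =>
      mem_normalizer_fintype fun u hu => mem_cj.mpr (by
        have h1 := (mem_normalizer_iff.mp (hn (cj_mem (g := g) ha)) _).mp (mem_cj.mp hu)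
        simpa [mul_assoc] using h1)
    have e : cj g (cj g⁻¹ U) = U := by
      ext x; rw [mem_cj, mem_cj]; simp [mul_assoc]
    rcases i.irr _ hU' hn' with h1 | h1
    · left; rw [← e, h1]; exact Subgroup.map_bot _
    · right; rw [← e, h1]
  card := by rw [card_map_of_injective (MulAut.conj g).injective]; exact i.card

theorem card_cj (g : G) (X : Subgroup G) : Nat.card (cj g X) = Nat.card X :=
  card_map_of_injective (MulAut.conj g).injective

/-- Main induction. -/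
theorem irr_pair : ∀ (n : ℕ) (E A B : Subgroup G), Nat.card E = n → Amb p V E → Irr p V E A → Irr p V E B →
    E = A ⊔ B → ¬ ⁅V, A⁆ ≤ ⁅V, B⁆ → ¬ ⁅V, B⁆ ≤ ⁅V, A⁆ →
    ⁅A, B⁆ = ⊥ ∧ A ⊓ B = ⊥ ∧ ⁅V, A⁆ ⊓ ⁅V, B⁆ = ⊥ ∧ (∀ g ∈ A, ∀ w ∈ ⁅V, B⁆, Commute g w) := by
  intro n
  induction n using Nat.strong_induction_on with
  | _ n ih => ?_
  intro E A B hn h iA iB hgen hAB hBA
  subst hn
  -- dichotomy for the conjugates of one of them
  have dich : ∀ X Y : Subgroup G, Irr p V E X → Irr p V E Y → ¬ ⁅V, Y⁆ ≤ ⁅V, X⁆ → ∀ g ∈ E,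
      cj g ⁅V, X⁆ ≠ ⁅V, X⁆ →
      ⁅V, X⁆ ⊓ cj g ⁅V, X⁆ = ⊥ ∧ (∀ b ∈ X, ∀ w ∈ cj g ⁅V, X⁆, Commute b w) := by
    intro X Y iX iY hYX g hg hne
    have hXE : X.subgroupOf E ≠ ⊤ := fun e => hYX (commutator_mono le_rfl (iY.le.trans (subgroupOf_eq_top.mp e)))
    obtain ⟨N, hNn, hXN, hNlt⟩ := iX.sub.lt_normal.resolve_left hXE
    set iX' := iX.conj h hg
    set F := X ⊔ cj g X
    have hFE : F ≤ E := sup_le iX.le iX'.le
    have hFN : F.subgroupOf E ≤ N := by
      have h1 : cj g X ≤ N.map E.subtype := by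
        intro x hx
        have hx' : g⁻¹ * x * g ∈ X := mem_cj.mp hx
        refine ⟨⟨x, iX'.le hx⟩, ?_, rfl⟩
        have h2 := hNn.conj_mem _ (hXN (mem_subgroupOf.mpr hx' : (⟨g⁻¹ * x * g, iX.le hx'⟩ : E) ∈ X.subgroupOf E))
          ⟨g, hg⟩
        have e : (⟨g, hg⟩ : E) * ⟨g⁻¹ * x * g, iX.le hx'⟩ * (⟨g, hg⟩ : E)⁻¹ = ⟨x, iX'.le hx⟩ :=
          Subtype.ext (show g * (g⁻¹ * x * g) * g⁻¹ = x by group)
        rw [e] at h2
        exact h2
      have h0 : X ≤ N.map E.subtype := fun x hx => ⟨⟨x, iX.le hx⟩, hXN (mem_subgroupOf.mpr hx), rfl⟩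
      intro y hy
      obtain ⟨z, hz, e⟩ := sup_le h0 h1 (mem_subgroupOf.mp hy)
      rwa [← Subtype.ext e]
    have hlt : Nat.card F < Nat.card E := by
      refine lt_of_le_of_ne (card_le_of_le hFE) fun e => hNlt.ne (top_le_iff.mp ?_)
      intro y _
      exact hFN (mem_subgroupOf.mpr ((eq_of_le_of_card_ge hFE e.ge).ge y.2))
    have hFsub : (F.subgroupOf E).IsSubnormal := by
      rw [subgroupOf_sup iX.le iX'.le]
      exact GS.isSubnormal_sup iX.sub iX'.sub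
    have hF : Amb p V F := by
      refine ⟨h.elV, hFE.trans h.norm, le_bot_iff.mp (h.faith ▸ inf_le_inf_right _ hFE), ?_⟩
      set P := ((pCore p ↥F).map (inclusion hFE))
      have hP : P.IsSubnormal := by
        refine IsSubnormal.trans (K := F.subgroupOf E) ?_ ?_ hFsub
        · rintro _ ⟨y, -, rfl⟩; exact mem_subgroupOf.mpr y.2
        · refine Normal.isSubnormal ⟨fun z hz y => ?_⟩
          obtain ⟨u, hu, hue⟩ := mem_subgroupOf.mp hz
          refine mem_subgroupOf.mpr ⟨⟨((y : E) : G), mem_subgroupOf.mp y.2⟩ * u *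
            (⟨((y : E) : G), mem_subgroupOf.mp y.2⟩ : F)⁻¹, Normal.conj_mem (Hall.pCore_normal p) u hu _, ?_⟩
          rw [map_mul, map_mul, map_inv, hue]
          rfl
      have := (Components.le_pCore_of_subnormal hP ((Hall.isPGroup_pCore (G := ↥F) p).map _)).trans h.core.le
      rwa [le_bot_iff, Subgroup.map_eq_bot_iff_of_injective _ (inclusion_injective hFE)] at this
    have sub' : ∀ {Z : Subgroup G}, Irr p V E Z → Z ≤ F → Irr p V F Z := fun {Z} iZ hZ =>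
      ⟨hZ, by
        have := iZ.sub.comap (inclusion hFE)
        convert this using 1
        ext z; simp [mem_subgroupOf], iZ.irr, iZ.card⟩
    have hW : ⁅V, cj g X⁆ = cj g ⁅V, X⁆ := cj_commutator (h.norm hg) X
    have hne1 : ¬ ⁅V, X⁆ ≤ ⁅V, cj g X⁆ := fun e => hne (by
      rw [hW] at e; exact (eq_of_le_of_card_ge e (card_cj g _).le).symm)
    have hne2 : ¬ ⁅V, cj g X⁆ ≤ ⁅V, X⁆ := fun e => hne (by
      rw [hW] at e; exact eq_of_le_of_card_ge e (card_cj g _).ge)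
    obtain ⟨-, -, h3, h4⟩ := ih _ hlt F X (cj g X) rfl hF (sub' iX le_sup_left) (sub' iX' le_sup_right) rfl
      hne1 hne2
    rw [hW] at h3 h4
    exact ⟨h3, h4⟩
  -- if `Y` moves the commutator of `X`, then it is no larger
  have small : ∀ X Y : Subgroup G, Irr p V E X → Irr p V E Y → ¬ ⁅V, Y⁆ ≤ ⁅V, X⁆ → ∀ g ∈ Y,
      cj g ⁅V, X⁆ ≠ ⁅V, X⁆ → Nat.card (⁅V, X⁆ : Subgroup G) ≤ Nat.card (⁅V, Y⁆ : Subgroup G) ∧
        (Nat.card (⁅V, X⁆ : Subgroup G) = Nat.card (⁅V, Y⁆ : Subgroup G) →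
          ∀ z ∈ ⁅V, Y⁆, ∃ w ∈ ⁅V, X⁆, z = ⁅g, w⁆) := by
    intro X Y iX iY hYX g hg hne
    obtain ⟨hd, -⟩ := dich X Y iX iY hYX g (iY.le hg) hne
    let φ : (⁅V, X⁆ : Subgroup G) → (⁅V, Y⁆ : Subgroup G) := fun w =>
      ⟨⁅g, (w : G)⁆, Irr.comm_mem_W hg (iX.W_le_V h w.2)⟩
    have hinj : Function.Injective φ := by
      intro u v e
      have e' : ⁅g, (u : G)⁆ = ⁅g, (v : G)⁆ := congrArg Subtype.val e
      have hu := h.comm_mem (iY.le hg) (iX.W_le_V h u.2)
      have e1 : g * ((u : G) * (v : G)⁻¹) * g⁻¹ = (u : G) * (v : G)⁻¹ := by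
        calc g * ((u : G) * (v : G)⁻¹) * g⁻¹ = (⁅g, (u : G)⁆ * u) * (⁅g, (v : G)⁆ * v)⁻¹ := by
              simp only [commutatorElement_def]; group
          _ = ⁅g, (v : G)⁆ * ((u : G) * (v : G)⁻¹) * ⁅g, (v : G)⁆⁻¹ := by rw [e']; group
          _ = _ := by
              rw [((h.vcomm (e' ▸ hu) (mul_mem (iX.W_le_V h u.2) (inv_mem (iX.W_le_V h v.2))))).eq,
                mul_inv_cancel_right]
      have hm : (u : G) * (v : G)⁻¹ ∈ ⁅V, X⁆ ⊓ cj g ⁅V, X⁆ :=
        Subgroup.mem_inf.mpr ⟨mul_mem u.2 (inv_mem v.2), e1 ▸ cj_mem (mul_mem u.2 (inv_mem v.2))⟩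
      rw [hd, mem_bot, mul_inv_eq_one] at hm
      exact Subtype.ext hm
    refine ⟨Nat.card_le_card_of_injective φ hinj, fun hc z hz => ?_⟩
    obtain ⟨w, hw⟩ := (hinj.bijective_of_nat_card_le hc.ge).2 ⟨z, hz⟩
    exact ⟨w, w.2, (congrArg Subtype.val hw).symm⟩
  -- neither moves
  have fixes : ∀ X Y : Subgroup G, Irr p V E X → Irr p V E Y → E = X ⊔ Y → ¬ ⁅V, Y⁆ ≤ ⁅V, X⁆ →
      ¬ ⁅V, X⁆ ≤ ⁅V, Y⁆ → Y ≤ normalizer ((⁅V, X⁆ : Subgroup G) : Set G) := by
    intro X Y iX iY hXY hYX hXY' g hg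
    by_contra hgn
    have hne : cj g ⁅V, X⁆ ≠ ⁅V, X⁆ := fun e => hgn (mem_normalizer_of_cj e)
    obtain ⟨hd, hc⟩ := dich X Y iX iY hYX g (iY.le hg) hne
    obtain ⟨hle, hsurj⟩ := small X Y iX iY hYX g hg hne
    have hXn : ¬ X ≤ normalizer ((⁅V, Y⁆ : Subgroup G) : Set G) := by
      intro hXn
      have hdisj : ⁅V, X⁆ ⊓ ⁅V, Y⁆ = ⊥ := (iX.irr _ inf_le_left (fun x hx => inf_normalizer_le_normalizer_inf
        ⟨iX.norm_W h hx, hXn hx⟩)).resolve_right fun e => hXY' (inf_eq_left.mp e)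
      obtain ⟨w, hw, hw1⟩ : ∃ w ∈ ⁅V, X⁆, w ≠ 1 := by
        by_contra hc0
        push Not at hc0
        exact hne (by rw [(eq_bot_iff_forall _).mpr hc0]; exact Subgroup.map_bot _)
      refine hw1 (iX.fix_eq_bot h hw fun b hb => ?_)
      have hz : ⁅g, w⁆ ∈ ⁅V, Y⁆ := Irr.comm_mem_W hg (iX.W_le_V h hw)
      have hbz : Commute b ⁅g, w⁆ := by
        have h1 : ⁅b, ⁅g, w⁆⁆ ∈ ⁅V, X⁆ ⊓ ⁅V, Y⁆ := Subgroup.mem_inf.mpr ⟨Irr.comm_mem_W hb (iY.W_le_V h hz), by
          rw [commutatorElement_def]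
          exact mul_mem ((mem_normalizer_iff.mp (hXn hb) _).mp hz) (inv_mem hz)⟩
        rw [hdisj, mem_bot, commutatorElement_eq_one_iff_commute] at h1
        exact h1
      have hbw := hc b hb _ (cj_mem (g := g) hw)
      have := hbz.inv_right.mul_right hbw
      rwa [show ⁅g, w⁆⁻¹ * (g * w * g⁻¹) = w by simp [commutatorElement_def, mul_assoc]] at this
    obtain ⟨x, hx, hxn⟩ := SetLike.not_le_iff_exists.mp hXn
    have heq := le_antisymm hle
      (small Y X iY iX hXY' x hx (fun e => hxn (mem_normalizer_of_cj e))).1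
    have hgraph := hsurj heq
    have hWV := iX.W_le_V h
    have hdisjY : ⁅V, X⁆ ⊓ ⁅V, Y⁆ = ⊥ := by
      rw [eq_bot_iff]
      rintro z ⟨hzX, hzY⟩
      obtain ⟨w, hw, rfl⟩ := hgraph z hzY
      have hm : g * w * g⁻¹ ∈ ⁅V, X⁆ ⊓ cj g ⁅V, X⁆ := by
        refine ⟨?_, cj_mem hw⟩
        have := mul_mem hzX hw
        rwa [show ⁅g, w⁆ * w = g * w * g⁻¹ by simp [commutatorElement_def]] at this
      rw [hd, mem_bot, mul_inv_eq_one, mul_eq_left] at hm
      rw [hm, commutatorElement_one_right]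
      exact one_mem _
    have hfix : ∀ k ∈ Y, cj k ⁅V, X⁆ = ⁅V, X⁆ → ∀ w ∈ ⁅V, X⁆, Commute k w := by
      intro k hk hke w hw
      have h1 : ⁅k, w⁆ ∈ ⁅V, X⁆ ⊓ ⁅V, Y⁆ := Subgroup.mem_inf.mpr ⟨by
        rw [commutatorElement_def]
        exact mul_mem (hke.le (cj_mem hw)) (inv_mem hw), Irr.comm_mem_W hk (hWV hw)⟩
      rw [hdisjY, mem_bot, commutatorElement_eq_one_iff_commute] at h1
      exact h1
    have htwo : ∀ k ∈ Y, cj k ⁅V, X⁆ = ⁅V, X⁆ ∨ cj k ⁅V, X⁆ = cj g ⁅V, X⁆ := by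
      intro k hk
      refine or_iff_not_imp_left.mpr fun hke => ?_
      by_contra hkg
      obtain ⟨w, hw, hw1⟩ : ∃ w ∈ ⁅V, X⁆, w ≠ 1 := by
        by_contra hc0
        push Not at hc0
        exact hne (by rw [(eq_bot_iff_forall _).mpr hc0]; exact Subgroup.map_bot _)
      obtain ⟨hdk, hck⟩ := dich X Y iX iY hYX k (iY.le hk) hke
      obtain ⟨u, hu, hue⟩ := (small X Y iX iY hYX k hk hke).2 heq _ (Irr.comm_mem_W hg (hWV hw))
      have huw : w = u := by
        refine mul_inv_eq_one.mp (iX.fix_eq_bot h (mul_mem hw (inv_mem hu)) fun b hb => ?_)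
        have e : w * u⁻¹ = (k * u * k⁻¹)⁻¹ * (g * w * g⁻¹) := by
          have hV1 := h.comm_mem (iY.le hk) (hWV hu)
          calc w * u⁻¹ = u⁻¹ * w := (h.vcomm (hWV hw) (inv_mem (hWV hu))).eq
            _ = u⁻¹ * (⁅k, u⁆⁻¹ * ⁅g, w⁆) * w := by rw [hue]; group
            _ = _ := by simp only [commutatorElement_def]; group
        rw [e]
        exact (hck b hb _ (cj_mem hu)).inv_right.mul_right (hc b hb _ (cj_mem hw))
      subst huw
      have e2 : g * w * g⁻¹ = k * w * k⁻¹ := by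
        rw [show g * w * g⁻¹ = ⁅g, w⁆ * w by simp [commutatorElement_def], hue]
        simp [commutatorElement_def]
      have hne' : cj (g⁻¹ * k) ⁅V, X⁆ ≠ ⁅V, X⁆ := fun e => hkg (by
        conv_rhs => rw [← e]
        rw [cj, cj, cj, Subgroup.map_map]
        congr 1
        ext z
        simp [mul_assoc])
      obtain ⟨hd', -⟩ := dich X Y iX iY hYX _ (mul_mem (inv_mem (iY.le hg)) (iY.le hk)) hne'
      have hm : w ∈ ⁅V, X⁆ ⊓ cj (g⁻¹ * k) ⁅V, X⁆ := by
        refine ⟨hw, ?_⟩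
        have h3 : (g⁻¹ * k) * w * (g⁻¹ * k)⁻¹ ∈ cj (g⁻¹ * k) ⁅V, X⁆ := cj_mem hw
        rwa [show (g⁻¹ * k) * w * (g⁻¹ * k)⁻¹ = g⁻¹ * (k * w * k⁻¹) * g by group, ← e2,
          show g⁻¹ * (g * w * g⁻¹) * g = w by group] at h3
      rw [hd', mem_bot] at hm
      exact hw1 hm
    have hstab : ∀ k ∈ Y, cj k ⁅V, X⁆ = ⁅V, X⁆ → k = 1 := by
      intro k hk hke
      refine iY.faithful h hk fun z hz => ?_
      obtain ⟨w, hw, rfl⟩ := hgraph z hz
      have hk' : Commute (g⁻¹ * k * g) w := by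
        have hYk : g⁻¹ * k * g ∈ Y := mul_mem (mul_mem (inv_mem hg) hk) hg
        refine hfix _ hYk ?_ w hw
        have h1 : cj (k * g) ⁅V, X⁆ = cj g ⁅V, X⁆ := by
          refine (htwo _ (mul_mem hk hg)).resolve_left fun e => hne ?_
          have e2 : cj g ⁅V, X⁆ = cj k⁻¹ (cj (k * g) ⁅V, X⁆) := by
            ext z; simp only [mem_cj]; simp [mul_assoc]
          rw [e2, e]
          conv_lhs => rw [← hke]
          ext z; simp only [mem_cj]; simp [mul_assoc]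
        have e3 : cj (g⁻¹ * k * g) ⁅V, X⁆ = cj g⁻¹ (cj (k * g) ⁅V, X⁆) := by
          ext z; simp only [mem_cj]; simp [mul_assoc]
        rw [e3, h1]
        ext z; simp only [mem_cj]; simp [mul_assoc]
      have h5 : Commute k (g * w * g⁻¹) := by
        have := hk'.map (MulAut.conj g).toMonoidHom
        simpa [mul_assoc] using this
      exact (show Commute k (g * w * g⁻¹ * w⁻¹) from h5.mul_right (hfix k hk hke w hw).inv_right)
    have hsub : (Y : Set G) ⊆ {1, g} := by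
      intro k hk
      rcases htwo k hk with e | e
      · exact Or.inl (hstab k hk e)
      · refine Or.inr ?_
        have h1 : g⁻¹ * k = 1 := hstab _ (mul_mem (inv_mem hg) hk) (by
          have e4 : cj (g⁻¹ * k) ⁅V, X⁆ = cj g⁻¹ (cj k ⁅V, X⁆) := by
            ext z; simp only [mem_cj]; simp [mul_assoc]
          rw [e4, e]
          ext z; simp only [mem_cj]; simp [mul_assoc])
        exact (inv_mul_eq_one.mp h1).symm
    have h2 : Nat.card Y ≤ 2 := by
      rw [← SetLike.coe_sort_coe, Nat.card_coe_set_eq]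
      refine (Set.ncard_le_ncard hsub (Set.toFinite _)).trans ((Set.ncard_insert_le _ _).trans ?_)
      rw [Set.ncard_singleton]
    exact absurd iY.card (by omega)
  exact mutual_commute h iA iB (fixes B A iB iA (hgen.trans (sup_comm _ _)) hAB hBA) (fixes A B iA iB hgen hBA hAB) hAB

/-- S0615. -/
theorem irr_pair_structure {E A B : Subgroup G} (h : Amb p V E) (iA : Irr p V E A) (iB : Irr p V E B)
    (hgen : E = A ⊔ B) (hAB : ¬ ⁅V, A⁆ ≤ ⁅V, B⁆) (hBA : ¬ ⁅V, B⁆ ≤ ⁅V, A⁆) :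
    ⁅A, B⁆ = ⊥ ∧ A ⊓ B = ⊥ ∧ ⁅V, A⁆ ⊓ ⁅V, B⁆ = ⊥ ∧ ⁅V, E⁆ = ⁅V, A⁆ ⊔ ⁅V, B⁆ := by
  obtain ⟨h1, h2, h3, h4⟩ := irr_pair _ E A B rfl h iA iB hgen hAB hBA
  refine ⟨h1, h2, h3, le_antisymm ?_ (sup_le (commutator_mono le_rfl iA.le) (commutator_mono le_rfl iB.le))⟩
  refine commutator_le.mpr fun v hv g hg => ?_
  have hAB' : A ≤ normalizer (B : Set G) :=
    (commutator_eq_bot_iff_le_centralizer.mp h1).trans (centralizer_le_normalizer _)
  rw [hgen, ← SetLike.mem_coe, coe_mul_of_left_le_normalizer_right _ _ hAB'] at hg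
  obtain ⟨a, ha, b, hb, rfl⟩ := hg
  have hb' : ⁅v, b⁆ ∈ ⁅V, B⁆ := commutator_mem_commutator hv hb
  have e : ⁅v, a * b⁆ = ⁅v, a⁆ * (a * ⁅v, b⁆ * a⁻¹) := by simp only [commutatorElement_def]; group
  show ⁅v, a * b⁆ ∈ _
  rw [e, (h4 a ha _ hb').eq, mul_inv_cancel_right]
  exact mul_mem (mem_sup_left (commutator_mem_commutator hv ha)) (mem_sup_right hb')

end Cfsg.Agent.Lib.Offender
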